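import Cfsg.Agent.NumTheory.Zsigmondy

/-!
# Lower bound for the primitive part of `a ^ n - 1`
-/

set_option autoImplicit false

namespace CfsgLib.PrimitivePart

open CfsgLib.Zsigmondy Polynomial

/-- `m` is a divisor of `a ^ n - 1` coprime to every `a ^ i - 1`, `1 ≤ i < n`. -/
def IsPrimDiv (a n m : ℕ) : Prop :=
  m ∣ a ^ n - 1 ∧ ∀ i : ℕ, 1 ≤ i → i < n → Nat.Coprime m (a ^ i - 1)

theorem coprime_of_orderOf_eq {a n m : ℕ} (ha : 1 ≤ a)
    (h : ∀ s : ℕ, s.Prime → s ∣ m → orderOf (a : ZMod s) = n) (i : ℕ) (hi : 1 ≤ i)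
    (hin : i < n) : Nat.Coprime m (a ^ i - 1) := by
  refine Nat.coprime_of_dvd fun s hs hsm hsi => ?_
  have : Fact s.Prime := ⟨hs⟩
  have h1 : (a : ZMod s) ^ i = 1 := by
    rw [← sub_eq_zero, ← Nat.cast_pow, ← Nat.cast_one, ← Nat.cast_sub (Nat.one_le_pow _ _ ha)]
    exact (CharP.cast_eq_zero_iff (ZMod s) s _).mpr hsi
  have := Nat.le_of_dvd (by omega) (orderOf_dvd_of_pow_eq_one h1)
  rw [h s hs hsm] at this
  omega

theorem exists_primDiv_ge {a n : ℕ} (ha : 2 ≤ a) (hn : 3 ≤ n) :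
    ∃ m, IsPrimDiv a n m ∧ phiVal n a ≤ n * m := by
  have hdv : phiVal n a ∣ a ^ n - 1 := phiVal_dvd (by omega)
  by_cases hall : ∀ s : ℕ, s.Prime → s ∣ phiVal n a → orderOf (a : ZMod s) = n
  · exact ⟨phiVal n a, ⟨hdv, coprime_of_orderOf_eq (by omega) hall⟩,
      Nat.le_mul_of_pos_left _ (by omega)⟩
  push Not at hall
  obtain ⟨r, hrp, hr, himp⟩ := hall
  have : Fact r.Prime := ⟨hrp⟩
  have hrn : r ∣ n := by_contra fun h => himp (primitive_of_not_dvd hr h)
  have hsq := sq_not_dvd hn ha hr hrn himp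
  obtain ⟨c, hc⟩ := hr
  refine ⟨c, ⟨(dvd_mul_left c r).trans (hc ▸ hdv), coprime_of_orderOf_eq (by omega) ?_⟩, ?_⟩
  · intro s hs hsc
    by_contra hne
    have : Fact s.Prime := ⟨hs⟩
    have hsd : s ∣ phiVal n a := hc ▸ hsc.trans (dvd_mul_left c r)
    have hsn : s ∣ n := by_contra fun h => hne (primitive_of_not_dvd hsd h)
    have hsr : s = r := le_antisymm
      ((le_of_imprimitive (by omega) ha (hc ▸ dvd_mul_right r c) hs hsn).resolve_right himp)
      ((le_of_imprimitive (by omega) ha hsd hrp hrn).resolve_right hne)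
    subst hsr
    exact hsq (hc ▸ (sq s).symm ▸ mul_dvd_mul_left s hsc)
  · rw [hc]
    exact Nat.mul_le_mul_right c (Nat.le_of_dvd (by omega) hrn)

theorem two_pow_le_sq_aux (r : ℕ) (hr : 3 ≤ r) : 9 * 2 ^ (r - 1) ≤ (2 ^ r - 1) ^ 2 := by
  rcases Nat.lt_or_ge r 5 with h | h
  · rcases (by omega : r = 3 ∨ r = 4) with rfl | rfl <;> norm_num
  · obtain ⟨k, rfl⟩ : ∃ k, r = k + 1 := ⟨r - 1, by omega⟩
    rw [Nat.add_sub_cancel, pow_succ]
    have hk : 2 ^ 4 ≤ 2 ^ k := Nat.pow_le_pow_right two_pos (by omega)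
    have h1 : 2 ^ k ≤ 2 ^ k * 2 - 1 := by omega
    calc 9 * 2 ^ k ≤ 2 ^ k * 2 ^ k := Nat.mul_le_mul_right _ (by omega)
      _ ≤ (2 ^ k * 2 - 1) * (2 ^ k * 2 - 1) := Nat.mul_le_mul h1 h1
      _ = _ := (sq _).symm

theorem two_pow_totient_le_sq {n a : ℕ} (hn : 3 ≤ n) (ha : 2 ≤ a) :
    2 ^ Nat.totient n ≤ phiVal n a ^ 2 := by
  rcases Nat.lt_or_ge a 3 with ha3 | ha3
  swap
  · have h1 : 2 ^ Nat.totient n ≤ (a - 1) ^ Nat.totient n := Nat.pow_le_pow_left (by omega) _
    have h2 := pow_totient_lt n a (by omega) ha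
    exact (h1.trans h2.le).trans (Nat.le_self_pow two_ne_zero _)
  obtain rfl : a = 2 := by omega
  have hne : n.primeFactors.Nonempty := Nat.nonempty_primeFactors.mpr (by omega)
  obtain ⟨r, hr, hmax⟩ := n.primeFactors.exists_max_image id hne
  obtain ⟨hrp, ⟨m, hm⟩, -⟩ := Nat.mem_primeFactors.mp hr
  have hm0 : 0 < m := Nat.pos_of_ne_zero fun h => by rw [h, mul_zero] at hm; omega
  by_cases hrm : r ∣ m
  · have hφ : Nat.totient n = r * Nat.totient m := by
      rw [hm, Nat.totient_mul_of_prime_of_dvd hrp hrm]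
    have hm2 : 2 ≤ m := hrp.two_le.trans (Nat.le_of_dvd hm0 hrm)
    have h1 : phiVal n 2 = phiVal m (2 ^ r) := by
      unfold phiVal
      rw [hm, mul_comm r m, ← cyclotomic_expand_eq_cyclotomic hrp hrm ℤ, Polynomial.expand_eval]
      push_cast; rfl
    have h2 := pow_totient_lt m (2 ^ r) hm2 (Nat.le_self_pow hrp.ne_zero 2)
    have h3 : 2 ^ r ≤ (2 ^ r - 1) ^ 2 := by
      have h4 : 2 ^ 2 ≤ 2 ^ r := Nat.pow_le_pow_right two_pos hrp.two_le
      calc 2 ^ r ≤ 2 * (2 ^ r - 1) := by omega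
        _ ≤ (2 ^ r - 1) * (2 ^ r - 1) := Nat.mul_le_mul_right _ (by omega)
        _ = _ := (sq _).symm
    calc 2 ^ Nat.totient n = (2 ^ r) ^ Nat.totient m := by rw [hφ, pow_mul]
      _ ≤ ((2 ^ r - 1) ^ 2) ^ Nat.totient m := Nat.pow_le_pow_left h3 _
      _ = ((2 ^ r - 1) ^ Nat.totient m) ^ 2 := by rw [← pow_mul, ← pow_mul, mul_comm]
      _ ≤ phiVal n 2 ^ 2 := Nat.pow_le_pow_left (h1 ▸ h2.le) _
  · have hcop : Nat.Coprime r m := hrp.coprime_iff_not_dvd.mpr hrm
    have hφ : Nat.totient n = (r - 1) * Nat.totient m := by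
      rw [hm, Nat.totient_mul hcop, Nat.totient_prime hrp]
    have hr3 : 3 ≤ r := by
      by_contra h
      have hr2 : r = 2 := by have := hrp.two_le; omega
      have hm1 : m = 1 := by
        by_contra hm1
        obtain ⟨s, hs, hsm⟩ := Nat.exists_prime_and_dvd hm1
        have hsle : s ≤ r := hmax s
          (Nat.mem_primeFactors.mpr ⟨hs, hm ▸ hsm.trans (dvd_mul_left m r), by omega⟩)
        have := hs.two_le
        exact hrm ((by omega : s = r) ▸ hsm)
      rw [hr2, hm1] at hm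
      omega
    have hmul : phiVal n 2 * phiVal m 2 = phiVal m (2 ^ r) := by
      unfold phiVal
      rw [← Int.natAbs_mul, hm, mul_comm r m, ← eval_mul,
        ← cyclotomic_expand_eq_cyclotomic_mul hrp hrm ℤ, Polynomial.expand_eval]
      push_cast; rfl
    have hsmall : phiVal m 2 ≤ 3 ^ Nat.totient m := by
      rcases Nat.lt_or_ge m 3 with h | h
      · rcases (by omega : m = 1 ∨ m = 2) with rfl | rfl
        · simp [phiVal, cyclotomic_one]
        · simp [phiVal, cyclotomic_two]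
      · exact (phiVal_lt m 2 h le_rfl).le
    have hup : (2 ^ r - 1) ^ Nat.totient m ≤ phiVal m (2 ^ r) := by
      rcases Nat.lt_or_ge m 2 with h | h
      · obtain rfl : m = 1 := by omega
        simp only [phiVal, cyclotomic_one, Nat.totient_one, pow_one, eval_sub, eval_X, eval_one]
        have := Nat.one_le_pow r 2 two_pos
        omega
      · exact (pow_totient_lt m (2 ^ r) h (Nat.le_self_pow hrp.ne_zero 2)).le
    have h9 : (2 ^ r - 1) ^ Nat.totient m ≤ phiVal n 2 * 3 ^ Nat.totient m :=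
      hup.trans (hmul ▸ Nat.mul_le_mul_left _ hsmall)
    refine Nat.le_of_mul_le_mul_left ?_ (show 0 < 9 ^ Nat.totient m from pow_pos (by norm_num) _)
    calc 9 ^ Nat.totient m * 2 ^ Nat.totient n = (9 * 2 ^ (r - 1)) ^ Nat.totient m := by
          rw [hφ, mul_pow, ← pow_mul]
      _ ≤ ((2 ^ r - 1) ^ 2) ^ Nat.totient m := Nat.pow_le_pow_left (two_pow_le_sq_aux r hr3) _
      _ = ((2 ^ r - 1) ^ Nat.totient m) ^ 2 := by rw [← pow_mul, ← pow_mul, mul_comm]
      _ ≤ (phiVal n 2 * 3 ^ Nat.totient m) ^ 2 := Nat.pow_le_pow_left h9 _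
      _ = 9 ^ Nat.totient m * phiVal n 2 ^ 2 := by
          rw [mul_pow, ← pow_mul, mul_comm (Nat.totient m) 2, pow_mul]; ring

theorem prod_primes_le (S : Finset ℕ) :
    (∀ p ∈ S, p.Prime) → ∏ p ∈ S, p ≤ (S.card + 1) * ∏ p ∈ S, (p - 1) := by
  induction S using Finset.induction_on_max with
  | empty => simp
  | insert p S hmax ih =>
    intro hS
    have hpS : p ∉ S := fun h => lt_irrefl p (hmax p h)
    have hp := hS p (Finset.mem_insert_self p S)
    have hcard : S.card + 2 ≤ p := by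
      have hsub : S ⊆ Finset.Ico 2 p := fun s hs =>
        Finset.mem_Ico.mpr ⟨(hS s (Finset.mem_insert_of_mem hs)).two_le, hmax s hs⟩
      have := Finset.card_le_card hsub
      rw [Nat.card_Ico] at this
      have := hp.two_le
      omega
    rw [Finset.prod_insert hpS, Finset.prod_insert hpS, Finset.card_insert_of_notMem hpS]
    have h1 : p * (S.card + 1) ≤ (S.card + 1 + 1) * (p - 1) := by
      obtain ⟨d, rfl⟩ := Nat.exists_eq_add_of_le hcard
      have h2 : S.card + 2 + d - 1 = S.card + 1 + d := by omega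
      rw [h2]
      nlinarith
    calc p * ∏ x ∈ S, x ≤ p * ((S.card + 1) * ∏ x ∈ S, (x - 1)) :=
          Nat.mul_le_mul_left _ (ih fun s hs => hS s (Finset.mem_insert_of_mem hs))
      _ = p * (S.card + 1) * ∏ x ∈ S, (x - 1) := (mul_assoc _ _ _).symm
      _ ≤ (S.card + 1 + 1) * (p - 1) * ∏ x ∈ S, (x - 1) := Nat.mul_le_mul_right _ h1
      _ = _ := mul_assoc _ _ _

theorem le_totient_mul {n : ℕ} (hn : 0 < n) :
    n ≤ Nat.totient n * (n.primeFactors.card + 1) ∧
      2 ^ n.primeFactors.card ≤ 2 * Nat.totient n := by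
  have hS : ∀ p ∈ n.primeFactors, p.Prime := fun p hp => Nat.prime_of_mem_primeFactors hp
  have heq := Nat.totient_mul_prod_primeFactors n
  have hpos : 0 < ∏ p ∈ n.primeFactors, (p - 1) :=
    Finset.prod_pos fun p hp => by have := (hS p hp).two_le; omega
  constructor
  · refine Nat.le_of_mul_le_mul_right ?_ hpos
    calc n * ∏ p ∈ n.primeFactors, (p - 1) = Nat.totient n * ∏ p ∈ n.primeFactors, p := heq.symm
      _ ≤ Nat.totient n * ((n.primeFactors.card + 1) * ∏ p ∈ n.primeFactors, (p - 1)) :=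
          Nat.mul_le_mul_left _ (prod_primes_le _ hS)
      _ = _ := (mul_assoc _ _ _).symm
  · have hle : ∏ p ∈ n.primeFactors, (p - 1) ≤ Nat.totient n := by
      refine Nat.le_of_mul_le_mul_left ?_ hn
      rw [← heq, mul_comm n]
      exact Nat.mul_le_mul_left _ (Nat.le_of_dvd hn (Nat.prod_primeFactors_dvd n))
    have h2 : 2 ^ (n.primeFactors.erase 2).card ≤ ∏ p ∈ n.primeFactors, (p - 1) := by
      calc 2 ^ (n.primeFactors.erase 2).card
          ≤ ∏ p ∈ n.primeFactors.erase 2, (p - 1) := by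
            rw [← Finset.prod_const]
            refine Finset.prod_le_prod' fun p hp => ?_
            obtain ⟨hp2, hp⟩ := Finset.mem_erase.mp hp
            have := (hS p hp).two_le
            omega
        _ ≤ _ := by
            refine Finset.prod_le_prod_of_subset_of_one_le' (Finset.erase_subset _ _) fun p hp _ => ?_
            have := (hS p hp).two_le
            omega
    have h3 : n.primeFactors.card ≤ (n.primeFactors.erase 2).card + 1 := by
      rw [Finset.card_erase_eq_ite]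
      split <;> omega
    calc 2 ^ n.primeFactors.card ≤ 2 ^ ((n.primeFactors.erase 2).card + 1) :=
          Nat.pow_le_pow_right two_pos h3
      _ = 2 * 2 ^ (n.primeFactors.erase 2).card := by rw [pow_succ, mul_comm]
      _ ≤ _ := Nat.mul_le_mul_left 2 (h2.trans hle)

theorem succ_pow_four_le (k : ℕ) : (k + 1) ^ 4 ≤ 41 * 2 ^ k := by
  induction k with
  | zero => norm_num
  | succ k ih =>
    rcases Nat.lt_or_ge k 6 with h | h
    · interval_cases k <;> norm_num
    · have h1 : (k + 1 + 1) ^ 4 ≤ 2 * (k + 1) ^ 4 := by nlinarith [Nat.mul_le_mul h h]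
      rw [pow_succ 2 k]
      omega

theorem poly_le_two_pow (t : ℕ) (ht : 37 ≤ t) : 1312 * t ^ 5 ≤ 2 ^ t := by
  induction t, ht using Nat.le_induction with
  | base => norm_num
  | succ t ht ih =>
    have h1 : (t + 1) ^ 5 ≤ 2 * t ^ 5 := by
      have h2 : 37 * 37 ≤ t * t := Nat.mul_le_mul ht ht
      have h3 : 37 * t ^ 4 ≤ t * t ^ 4 := Nat.mul_le_mul_right _ ht
      nlinarith [Nat.zero_le (t ^ 3), Nat.zero_le (t ^ 2)]
    calc 1312 * (t + 1) ^ 5 ≤ 1312 * (2 * t ^ 5) := Nat.mul_le_mul_left _ h1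
      _ = 2 * (1312 * t ^ 5) := by ring
      _ ≤ 2 * 2 ^ t := Nat.mul_le_mul_left 2 ih
      _ = 2 ^ (t + 1) := by rw [pow_succ, mul_comm]

theorem lt_of_small {n : ℕ} (hn : 3 ≤ n)
    (h : 2 ^ Nat.totient n < (n * (3 * n + 1)) ^ 2) : n < 253 := by
  obtain ⟨h1, h2⟩ := le_totient_mul (n := n) (by omega)
  set t := Nat.totient n with ht
  set k := n.primeFactors.card with hk
  have ht36 : t ≤ 36 := by
    by_contra hlt
    have h3 : (n * (3 * n + 1)) ^ 2 ≤ 16 * n ^ 4 :=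
      calc (n * (3 * n + 1)) ^ 2 ≤ (4 * n ^ 2) ^ 2 := Nat.pow_le_pow_left (by nlinarith) 2
        _ = 16 * n ^ 4 := by ring
    have h4 : n ^ 4 ≤ t ^ 4 * (41 * (2 * t)) :=
      calc n ^ 4 ≤ (t * (k + 1)) ^ 4 := Nat.pow_le_pow_left h1 4
        _ = t ^ 4 * (k + 1) ^ 4 := mul_pow _ _ _
        _ ≤ t ^ 4 * (41 * 2 ^ k) := Nat.mul_le_mul_left _ (succ_pow_four_le k)
        _ ≤ t ^ 4 * (41 * (2 * t)) := Nat.mul_le_mul_left _ (Nat.mul_le_mul_left _ h2)
    have h5 := poly_le_two_pow t (by omega)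
    have h6 : 16 * (t ^ 4 * (41 * (2 * t))) = 1312 * t ^ 5 := by ring
    omega
  have hk6 : k ≤ 6 := by
    by_contra hlt
    have := Nat.pow_le_pow_right two_pos (show 7 ≤ k by omega)
    omega
  calc n ≤ t * (k + 1) := h1
    _ ≤ 36 * 7 := Nat.mul_le_mul ht36 (by omega)
    _ < 253 := by norm_num

end CfsgLib.PrimitivePart
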