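import Cfsg.Agent.NumTheory.PrimitivePart

/-!
# The thirteen pairs with small primitive part
-/

set_option autoImplicit false

namespace CfsgLib.PrimitivePart

open CfsgLib.Zsigmondy

/-- Repeatedly remove common factors with `c`. -/
def strip (x c : ℕ) : ℕ → ℕ
  | 0 => x
  | f + 1 => strip (x / Nat.gcd x c) c f

/-- The candidate primitive part of `a ^ n - 1`. -/
def part (a n : ℕ) : ℕ :=
  (List.range (n - 1)).foldl (fun x i => strip x (a ^ (i + 1) - 1) 10) (a ^ n - 1)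

theorem dvd_strip {m c : ℕ} (hc : Nat.Coprime m c) :
    ∀ (f x : ℕ), m ∣ x → m ∣ strip x c f
  | 0, _, h => h
  | f + 1, x, h => by
    refine dvd_strip hc f _ ?_
    refine Nat.Coprime.dvd_of_dvd_mul_left (hc.coprime_dvd_right (Nat.gcd_dvd_right x c)) ?_
    rwa [Nat.mul_div_cancel' (Nat.gcd_dvd_left x c)]

theorem dvd_part {a n m : ℕ} (hm : IsPrimDiv a n m) : m ∣ part a n := by
  have key : ∀ (l : List ℕ) (x : ℕ), (∀ i ∈ l, i + 1 < n) → m ∣ x →
      m ∣ l.foldl (fun x i => strip x (a ^ (i + 1) - 1) 10) x := by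
    intro l
    induction l with
    | nil => intro x _ hx; exact hx
    | cons i l ih =>
      intro x hl hx
      exact ih _ (fun j hj => hl j (List.mem_cons_of_mem i hj))
        (dvd_strip (hm.2 (i + 1) (by omega) (hl i List.mem_cons_self)) 10 x hx)
  exact key _ _ (fun i hi => by have := List.mem_range.mp hi; omega) hm.1

/-- The thirteen exceptional pairs. -/
def excList : List (ℕ × ℕ) :=
  [(2, 6), (2, 4), (2, 10), (2, 12), (2, 18), (3, 4), (3, 6), (5, 6), (2, 3), (2, 8), (2, 20),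
    (4, 3), (4, 6)]

/-- The exponents with small totient. -/
def smallList : List ℕ :=
  [3, 4, 5, 6, 7, 8, 9, 10, 11, 12, 13, 14, 15, 16, 17, 18, 19, 20, 21, 22, 24, 25, 26, 27, 28,
    30, 32, 33, 34, 36, 38, 39, 40, 42, 44, 45, 46, 48, 50, 52, 54, 56, 60, 66, 70, 72, 78, 84, 90]

theorem mem_smallList : ∀ n, n < 253 → 3 ≤ n →
    2 ^ Nat.totient n < (n * (3 * n + 1)) ^ 2 → n ∈ smallList := by
  decide +kernel

theorem large_base : ∀ n ∈ smallList, n * (3 * n + 1) ≤ 11 ^ Nat.totient n := by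
  decide +kernel

theorem table : ∀ n ∈ smallList, ∀ a ∈ List.range 12, 2 ≤ a →
    (a - 1) ^ Nat.totient n < n * (3 * n + 1) → (a, n) ∈ excList ∨
      (part a n ∣ a ^ n - 1 ∧ (∀ i ∈ List.range n, 1 ≤ i → Nat.gcd (part a n) (a ^ i - 1) = 1) ∧
        3 * n + 1 ≤ part a n) := by
  decide +kernel

theorem exc_part : ∀ x ∈ excList, 0 < part x.1 x.2 ∧ part x.1 x.2 ≤ 2 * x.2 + 1 := by
  decide +kernel

theorem exists_large {a n : ℕ} (ha : 2 ≤ a) (hn : 3 ≤ n) (hex : (a, n) ∉ excList) :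
    ∃ m, IsPrimDiv a n m ∧ 3 * n + 1 ≤ m := by
  obtain ⟨m, hm, hle⟩ := exists_primDiv_ge ha hn
  by_cases hbig : 3 * n + 1 ≤ m
  · exact ⟨m, hm, hbig⟩
  have hphi : phiVal n a < n * (3 * n + 1) :=
    hle.trans_lt (Nat.mul_lt_mul_of_pos_left (by omega) (by omega))
  have hsq : 2 ^ Nat.totient n < (n * (3 * n + 1)) ^ 2 :=
    (two_pow_totient_le_sq hn ha).trans_lt (Nat.pow_lt_pow_left hphi two_ne_zero)
  have hmem := mem_smallList n (lt_of_small hn hsq) hn hsq
  have hbase : (a - 1) ^ Nat.totient n < n * (3 * n + 1) :=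
    (pow_totient_lt n a (by omega) ha).trans hphi
  have ha12 : a < 12 := by
    by_contra h
    have := Nat.pow_le_pow_left (show 11 ≤ a - 1 by omega) (Nat.totient n)
    have := large_base n hmem
    omega
  rcases table n hmem a (List.mem_range.mpr ha12) ha hbase with h | ⟨h1, h2, h3⟩
  · exact absurd h hex
  · exact ⟨part a n, ⟨h1, fun i hi hin => h2 i (List.mem_range.mpr hin) hi⟩, h3⟩

theorem le_of_exc {a n m : ℕ} (hex : (a, n) ∈ excList) (hm : IsPrimDiv a n m) :
    m ≤ 2 * n + 1 := by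
  obtain ⟨h1, h2⟩ := exc_part (a, n) hex
  exact (Nat.le_of_dvd h1 (dvd_part hm)).trans h2

end CfsgLib.PrimitivePart
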